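import Mathlib
import Cfsg.Agent.Lib.Helper32.OPG.Defs
import Cfsg.Agent.Lib.Helper67.Siegel.Param
import Cfsg.Agent.Lib.Helper21.Siegel.Conj
import Cfsg.Agent.Lib.Helper34.Siegel.Rebase

/-!
# Project OPG (S2414), package [LINE]

A subgroup `K` of the isometry group containing all standard root groups `X`, `Y`, `Z` contains
`T(ℓ)` for every singular line `ℓ` (given the row reduction package `PkgRed`).
-/

set_option autoImplicit false
open scoped Matrix

namespace Cfsg.Agent.Lib.Helper62.OPG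

open Cfsg.Agent.Lib.Helper31.Siegel Cfsg.Agent.Lib.Helper32.Siegel Cfsg.Agent.Lib.Helper32.OPG

universe u

section

variable {n : ℕ} {F : Type u} [Field F]

/-- the stabiliser of a vector in the isometry group. -/
def lineStab (e : Vec n F) : Subgroup ↥(Iso n F) where
  carrier := {g | mat g *ᵥ e = e}
  mul_mem' := by
    intro a b ha hb
    show mat (a * b) *ᵥ e = e
    rw [mul_act, show mat b *ᵥ e = e from hb, show mat a *ᵥ e = e from ha]
  one_mem' := one_act e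
  inv_mem' := by
    intro a ha
    show mat a⁻¹ *ᵥ e = e
    have h := inv_act a e
    rw [show mat a *ᵥ e = e from ha] at h
    exact h

theorem mem_lineStab {e : Vec n F} {g : ↥(Iso n F)} : g ∈ lineStab e ↔ mat g *ᵥ e = e := Iff.rfl

/-- transport of `T(ℓ) ≤ K` along an element of `K`. -/
theorem line_transport {K : Subgroup ↥(Iso n F)} {p r : Vec n F} (hpr : IsSingLine p r)
    {g : ↥(Iso n F)} (hg : g ∈ K) (h : T (mat g *ᵥ p) (mat g *ᵥ r) ≤ K) : T p r ≤ K := by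
  intro σ hσ
  have hc := (Cfsg.Agent.Lib.Helper21.Siegel.pkgConj n F p r hpr g).2
  have h1 : g * σ * g⁻¹ ∈ Cfsg.conjBy (T p r) g := ⟨σ, hσ, rfl⟩
  rw [hc] at h1
  have h2 : g * σ * g⁻¹ ∈ K := h h1
  have h3 : σ = g⁻¹ * (g * σ * g⁻¹) * g := by group
  rw [h3]
  exact K.mul_mem (K.mul_mem (K.inv_mem hg) h2) hg

end

/-- **[LINE]** from the row reduction package. -/
theorem pkgLine_of (hR : Cfsg.Agent.Lib.Helper32.OPG.PkgRed.{u}) :
    Cfsg.Agent.Lib.Helper32.OPG.PkgLine.{u} := by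
  intro n F _ hn K hX hY hZ p r hpr
  let i0 : Fin n := ⟨0, by omega⟩
  let i1 : Fin n := ⟨1, by omega⟩
  let i2 : Fin n := ⟨2, by omega⟩
  have h01 : i0 ≠ i1 := by
    intro h; have := congrArg Fin.val h; simp [i0, i1] at this
  have h10 : i1 ≠ i0 := Ne.symm h01
  have h20 : i2 ≠ i0 := by
    intro h; have := congrArg Fin.val h; simp [i0, i2] at this
  have h12 : i1 ≠ i2 := by
    intro h; have := congrArg Fin.val h; simp [i1, i2] at this
  have hp0 : p ≠ 0 := by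
    have := hpr.1.ne_zero 0
    simpa using this
  -- first reduction: `g p = e_0`
  obtain ⟨g, hgK, hg⟩ := hR n F Set.univ i0 i1 (Set.mem_univ _) (Set.mem_univ _) h01 K hX hY hZ p
    hp0 hpr.2.1 (fun i hi => absurd (Set.mem_univ i) hi)
  apply line_transport hpr hgK
  have hl1 : IsSingLine (mat g *ᵥ p) (mat g *ᵥ r) :=
    (Cfsg.Agent.Lib.Helper21.Siegel.pkgConj n F p r hpr g).1
  rw [hg] at hl1 ⊢
  generalize mat g *ᵥ r = r₁ at hl1 ⊢
  have hB : B (E i0 : Vec n F) r₁ = 0 := Cfsg.Agent.Lib.Helper34.Siegel.B_eq_zero_of_isSingLine hl1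
  have hB' : B r₁ (E i0 : Vec n F) = 0 := by rw [B_comm]; exact hB
  have hy0 : r₁ (Sum.inr i0) = 0 := by rw [← B_E r₁ i0]; exact hB'
  -- the second vector, made perpendicular to `f_0`
  obtain ⟨x, hx⟩ : ∃ x : F, x = r₁ (Sum.inl i0) := ⟨_, rfl⟩
  obtain ⟨r₂, hr₂⟩ : ∃ r₂ : Vec n F, r₂ = r₁ - x • (E i0 : Vec n F) := ⟨_, rfl⟩
  have hr₂0 : r₂ ≠ 0 := by
    intro h0
    have hli := hl1.1
    rw [LinearIndependent.pair_iff] at hli
    have := hli (-x) 1 (by rw [← h0, hr₂]; module)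
    exact one_ne_zero this.2
  have hQ₂ : QF n F r₂ = 0 := by
    rw [hr₂, Q_sub, Q_smul, B_smul_right, hB', hl1.2.2.1, Q_E]
    ring
  have hsupp : ∀ i, i ∉ ({i | i ≠ i0} : Set (Fin n)) →
      r₂ (Sum.inl i) = 0 ∧ r₂ (Sum.inr i) = 0 := by
    intro i hi
    have hi' : i = i0 := by
      by_contra hne
      exact hi hne
    subst hi'
    constructor
    · rw [hr₂]
      simp [hx]
    · rw [hr₂]
      simp [hy0]
  -- the root groups with indices `≠ 0` fix `e_0`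
  have hX' : HasX ({i | i ≠ i0} : Set (Fin n)) (K ⊓ lineStab (E i0 : Vec n F)) := by
    intro i j hi hj hij c σ hσ
    refine Subgroup.mem_inf.mpr ⟨hX i j (Set.mem_univ _) (Set.mem_univ _) hij c σ hσ, ?_⟩
    show mat σ *ᵥ (E i0 : Vec n F) = E i0
    rw [hσ, B_E_Fv, if_neg (Ne.symm hj), B_E_E]
    simp
  have hY' : HasY ({i | i ≠ i0} : Set (Fin n)) (K ⊓ lineStab (E i0 : Vec n F)) := by
    intro i j hi hj hij c σ hσ
    refine Subgroup.mem_inf.mpr ⟨hY i j (Set.mem_univ _) (Set.mem_univ _) hij c σ hσ, ?_⟩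
    show mat σ *ᵥ (E i0 : Vec n F) = E i0
    rw [hσ, B_E_E, B_E_E]
    simp
  have hZ' : HasZ ({i | i ≠ i0} : Set (Fin n)) (K ⊓ lineStab (E i0 : Vec n F)) := by
    intro i j hi hj hij c σ hσ
    refine Subgroup.mem_inf.mpr ⟨hZ i j (Set.mem_univ _) (Set.mem_univ _) hij c σ hσ, ?_⟩
    show mat σ *ᵥ (E i0 : Vec n F) = E i0
    rw [hσ, B_E_Fv, if_neg (Ne.symm hj), B_E_Fv, if_neg (Ne.symm hi)]
    simp
  obtain ⟨g', hg'KS, hg'⟩ := hR n F ({i | i ≠ i0} : Set (Fin n)) i1 i2 h10 h20 h12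
    (K ⊓ lineStab (E i0 : Vec n F)) hX' hY' hZ' r₂ hr₂0 hQ₂ hsupp
  have hg'K : g' ∈ K := (Subgroup.mem_inf.mp hg'KS).1
  have hg'S : mat g' *ᵥ (E i0 : Vec n F) = E i0 := (Subgroup.mem_inf.mp hg'KS).2
  have hr₁ : mat g' *ᵥ r₁ = (E i1 : Vec n F) + x • (E i0 : Vec n F) := by
    have : r₁ = r₂ + x • (E i0 : Vec n F) := by rw [hr₂]; module
    rw [this, Matrix.mulVec_add, Matrix.mulVec_smul, hg', hg'S]
  apply line_transport hl1 hg'K
  rw [hg'S, hr₁]
  have hl : IsSingLine (E i0 : Vec n F) (E i1) := isSingLine_E_E h01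
  have hreb := (Cfsg.Agent.Lib.Helper34.Siegel.pkgRebase n F (E i0) (E i1) (E i0)
    ((E i1 : Vec n F) + x • (E i0 : Vec n F)) hl
    ⟨1, 0, x, 1, by simp, by module, by module⟩).2
  rw [hreb]
  intro σ hσ
  obtain ⟨c, hc⟩ := (Cfsg.Agent.Lib.Helper67.Siegel.pkgParam n F _ _ hl σ).1 hσ
  exact hY i0 i1 (Set.mem_univ _) (Set.mem_univ _) h01 c σ hc

end Cfsg.Agent.Lib.Helper62.OPG
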