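import Mathlib
import Cfsg.Agent.Lib.Helper32.OPG.Defs
import Cfsg.Agent.Lib.Helper67.Siegel.ComR
import Cfsg.Agent.Lib.Helper76.Siegel.Alg
import Cfsg.Agent.Lib.Helper76.Siegel.Exist

/-!
# Project OPG (S2414), package [SPREAD]

With all `X` root groups in `K`, one `Y` (resp. `Z`) root group in `K` gives all of them
(commutator formula `pkgComr` and the symmetry `IsSiegel p r c σ → IsSiegel r p (-c) σ`).
-/

set_option autoImplicit false
open scoped Matrix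

namespace Cfsg.Agent.Lib.Helper62.OPG

open Cfsg.Agent.Lib.Helper31.Siegel Cfsg.Agent.Lib.Helper32.Siegel Cfsg.Agent.Lib.Helper32.OPG

universe u

section

variable {n : ℕ} {F : Type u} [Field F]

/-- reversing the line of a Siegel transvection. -/
theorem spread_swap {p r : Vec n F} (h : IsSingLine p r) {c : F} {σ : ↥(Iso n F)}
    (hσ : IsSiegel p r c σ) : IsSiegel r p (-c) σ :=
  (Cfsg.Agent.Lib.Helper76.Siegel.pkgAlg n F p r h).2.2.2.2.1 c σ hσ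

theorem spread_swap' {p r : Vec n F} (h : IsSingLine p r) {c : F} {σ : ↥(Iso n F)}
    (hσ : IsSiegel p r (-c) σ) : IsSiegel r p c σ := by
  have := spread_swap h hσ
  rwa [neg_neg] at this

theorem spread_symm {p r : Vec n F} (h : IsSingLine p r) : IsSingLine r p :=
  (Cfsg.Agent.Lib.Helper76.Siegel.pkgAlg n F p r h).2.2.2.2.2

/-- the `Y` step: `Y_{ba} ⊆ K` gives `Y_{bi} ⊆ K`. -/
theorem spread_Y_step {K : Subgroup ↥(Iso n F)} (hX : HasX Set.univ K) {a b i : Fin n}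
    (hba : b ≠ a) (hia : i ≠ a) (hbi : b ≠ i)
    (hY : ∀ (c : F) (σ : ↥(Iso n F)), IsSiegel (E b) (E a) c σ → σ ∈ K) :
    ∀ (c : F) (σ : ↥(Iso n F)), IsSiegel (E b) (E i) c σ → σ ∈ K := by
  intro c σ hσ
  have l1 : IsSingLine (E i : Vec n F) (Fv a) := isSingLine_E_Fv hia
  have l2 : IsSingLine (E b : Vec n F) (E a) := isSingLine_E_E hba
  obtain ⟨x, hx⟩ := Cfsg.Agent.Lib.Helper76.Siegel.pkgExist n F _ _ l1 c
  obtain ⟨y, hy⟩ := Cfsg.Agent.Lib.Helper76.Siegel.pkgExist n F _ _ l2 1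
  have hxK : x ∈ K := hX i a (Set.mem_univ _) (Set.mem_univ _) hia c x hx
  have hyK : y ∈ K := hY 1 y hy
  have hc := Cfsg.Agent.Lib.Helper67.Siegel.pkgComr n F (E i) (Fv a) (E b) (E a) l1 l2
    (B_E_E i b) (B_E_E i a) (by rw [B_Fv_E, if_neg (Ne.symm hba)]) (by rw [B_Fv_E, if_pos rfl])
    c 1 x y hx hy
  rw [mul_one] at hc
  have : σ = x * y * x⁻¹ * y⁻¹ := isSiegel_ext hσ hc
  rw [this]
  exact K.mul_mem (K.mul_mem (K.mul_mem hxK hyK) (K.inv_mem hxK)) (K.inv_mem hyK)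

/-- the `Z` step: `Z_{ba} ⊆ K` gives `Z_{bi} ⊆ K`. -/
theorem spread_Z_step {K : Subgroup ↥(Iso n F)} (hX : HasX Set.univ K) {a b i : Fin n}
    (hba : b ≠ a) (hia : i ≠ a) (hbi : b ≠ i)
    (hZ : ∀ (c : F) (σ : ↥(Iso n F)), IsSiegel (Fv b) (Fv a) c σ → σ ∈ K) :
    ∀ (c : F) (σ : ↥(Iso n F)), IsSiegel (Fv b) (Fv i) c σ → σ ∈ K := by
  intro c σ hσ
  have l0 : IsSingLine (E a : Vec n F) (Fv i) := isSingLine_E_Fv (Ne.symm hia)
  have l1 : IsSingLine (Fv i : Vec n F) (E a) := spread_symm l0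
  have l2 : IsSingLine (Fv b : Vec n F) (Fv a) := isSingLine_Fv_Fv hba
  obtain ⟨x, hx0⟩ := Cfsg.Agent.Lib.Helper76.Siegel.pkgExist n F _ _ l0 (-c)
  have hx : IsSiegel (Fv i) (E a) c x := spread_swap' l0 hx0
  obtain ⟨y, hy⟩ := Cfsg.Agent.Lib.Helper76.Siegel.pkgExist n F _ _ l2 1
  have hxK : x ∈ K := hX a i (Set.mem_univ _) (Set.mem_univ _) (Ne.symm hia) (-c) x hx0
  have hyK : y ∈ K := hZ 1 y hy
  have hc := Cfsg.Agent.Lib.Helper67.Siegel.pkgComr n F (Fv i) (E a) (Fv b) (Fv a) l1 l2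
    (B_Fv_Fv i b) (B_Fv_Fv i a) (by rw [B_E_Fv, if_neg (Ne.symm hba)]) (by rw [B_E_Fv, if_pos rfl])
    c 1 x y hx hy
  rw [mul_one] at hc
  have : σ = x * y * x⁻¹ * y⁻¹ := isSiegel_ext hσ hc
  rw [this]
  exact K.mul_mem (K.mul_mem (K.mul_mem hxK hyK) (K.inv_mem hxK)) (K.inv_mem hyK)

end

/-- **[SPREAD]**. -/
theorem pkgSpread : Cfsg.Agent.Lib.Helper32.OPG.PkgSpread.{u} := by
  intro n F _ K hX i₁ j₁ h₁
  constructor
  · intro hY
    -- step 1: `Y_{i₁ j}` for all `j ≠ i₁`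
    have s1 : ∀ j : Fin n, i₁ ≠ j → ∀ (c : F) (σ : ↥(Iso n F)),
        IsSiegel (E i₁) (E j) c σ → σ ∈ K := by
      intro j hj
      by_cases hjj : j = j₁
      · subst hjj; exact hY
      · exact spread_Y_step hX h₁ hjj hj hY
    -- step 2: `Y_{j i₁}`
    have s2 : ∀ j : Fin n, j ≠ i₁ → ∀ (c : F) (σ : ↥(Iso n F)),
        IsSiegel (E j) (E i₁) c σ → σ ∈ K := by
      intro j hj c σ hσ
      exact s1 j (Ne.symm hj) (-c) σ (spread_swap (isSingLine_E_E hj) hσ)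
    intro i j _ _ hij
    by_cases hi : i = i₁
    · subst hi; exact s1 j hij
    · by_cases hj : j = i₁
      · subst hj; exact s2 i hi
      · exact spread_Y_step hX hi hj hij (s2 i hi)
  · intro hZ
    have s1 : ∀ j : Fin n, i₁ ≠ j → ∀ (c : F) (σ : ↥(Iso n F)),
        IsSiegel (Fv i₁) (Fv j) c σ → σ ∈ K := by
      intro j hj
      by_cases hjj : j = j₁
      · subst hjj; exact hZ
      · exact spread_Z_step hX h₁ hjj hj hZ
    have s2 : ∀ j : Fin n, j ≠ i₁ → ∀ (c : F) (σ : ↥(Iso n F)),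
        IsSiegel (Fv j) (Fv i₁) c σ → σ ∈ K := by
      intro j hj c σ hσ
      exact s1 j (Ne.symm hj) (-c) σ (spread_swap (isSingLine_Fv_Fv hj) hσ)
    intro i j _ _ hij
    by_cases hi : i = i₁
    · subst hi; exact s1 j hij
    · by_cases hj : j = i₁
      · subst hj; exact s2 i hi
      · exact spread_Z_step hX hi hj hij (s2 i hi)

end Cfsg.Agent.Lib.Helper62.OPG
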